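import Mathlib

/-!
# Realisation of a faithful transitive action as a permutation group on `Fin n`
-/

set_option autoImplicit false

namespace H54

open MulAction

theorem exists_perm_group {G Y : Type*} [Group G] [MulAction G Y] [IsPretransitive G Y]
    (hf : ∀ g : G, (∀ y : Y, g • y = y) → g = 1) (y0 : Y) (n : ℕ) [NeZero n] (hn : Nat.card Y = n) :
    ∃ (H : Subgroup (Equiv.Perm (Fin n))) (_ : G ≃* H), IsPretransitive H (Fin n) ∧
      Nonempty (stabilizer G y0 ≃* stabilizer H (0 : Fin n)) := by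
  classical
  have : Finite Y := Nat.finite_of_card_ne_zero (hn ▸ NeZero.ne n)
  let e0 := Finite.equivFinOfCardEq hn
  let e : Y ≃ Fin n := e0.trans (Equiv.swap (e0 y0) 0)
  have he : e y0 = 0 := Equiv.swap_apply_left _ _
  let ψ : G →* Equiv.Perm (Fin n) := (Equiv.permCongrHom e).toMonoidHom.comp (toPermHom G Y)
  have h1 : ∀ g y, ψ g (e y) = e (g • y) := fun g y => by simp [ψ]
  have hψ : Function.Injective ψ := (injective_iff_map_eq_one ψ).2 fun g hg => hf g fun y =>
    e.injective (by rw [← h1, hg]; rfl)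
  let φ := MonoidHom.ofInjective hψ
  refine ⟨ψ.range, φ, ⟨fun a b => ?_⟩, ⟨(φ.subgroupMap _).trans (MulEquiv.subgroupCongr ?_)⟩⟩
  · obtain ⟨g, hg⟩ := exists_smul_eq G (e.symm a) (e.symm b)
    refine ⟨φ g, ?_⟩
    show ψ g a = b
    rw [← e.apply_symm_apply a, h1, hg, e.apply_symm_apply]
  · ext a
    obtain ⟨g, rfl⟩ := φ.surjective a
    rw [show φ g = (φ : G →* ψ.range) g from rfl, Subgroup.mem_map_iff_mem (f := (φ : G →* ψ.range)) φ.injective,
      mem_stabilizer_iff, mem_stabilizer_iff]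
    show _ ↔ ψ g 0 = 0
    rw [← he, h1, e.apply_eq_iff_eq]

theorem exists_index_map {A B C : Type*} [Group A] [Group B] [Group C] (e : A ≃* B) {k : ℕ}
    (h : ∃ N : Subgroup A, N.index = k ∧ Nonempty (N ≃* C)) :
    ∃ N : Subgroup B, N.index = k ∧ Nonempty (N ≃* C) := by
  obtain ⟨N, h1, ⟨f⟩⟩ := h
  exact ⟨N.map (e : A →* B), by rw [Subgroup.index_map_equiv, h1], ⟨(e.subgroupMap N).symm.trans f⟩⟩

end H54
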